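import Mathlib
import Cfsg.Agent.Lib.Twisted.Order
import Cfsg.Agent.Lib.BNPair.Euler

/-!
Twisted groups of rank two: elements of prime order commuting with a non-trivial element of `U¹` have an
order dividing the order of a minimal parabolic.
-/

set_option autoImplicit false
set_option linter.unusedSectionVars false
set_option linter.unusedVariables false
set_option linter.ambiguousOpen false
set_option linter.dupNamespace false

namespace Cfsg.Agent.Lib.Twisted.FixEuler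

open scoped MatrixGroups Matrix
open Cfsg Lie ChevalleyDatum
open Cfsg.Agent.Lib.Chev
open Tables Tables2 Tables3 Raise Basic AxBasic Torus Products Products2 Mono1 Mono2 Mono3 Bn
open Cfsg.Agent.Lib.Twisted.Fact Cfsg.Agent.Lib.Twisted.Bruhat Cfsg.Agent.Lib.Twisted.Tw
open Cfsg.Agent.Lib.Twisted.Struct
open Cfsg.Agent.Lib.BNPair.Basic (mk C WW sw mem_dc C_mk C_sw mem_C_of_rep eq_of_mem_C sw_ne_one exists_mul_of_lt exists_mk mk_eq_mk_iff)
open Cfsg.Agent.Lib.BNPair.Euler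

variable {D : ChevalleyDatum} {K : Type*} [Field K]
variable {h : Tab D} {ax : Ax D K} {tw : Tw h ax} {G1 : Subgroup (GL D.Idx K)} (T : TD h ax tw G1) (h2 : Tab2 D)

/-- The distinguished generator attached to a class. -/
def sOf (j : T.ι) : (T.bnPair h2).S := ⟨⟨T.n j, T.n_mem j⟩, ⟨j, rfl⟩⟩

include T h2

/-- `T3`, the ascending case. -/
theorem mul_u_left (j : T.ι) {u n : GL D.Idx K} (hu : u ∈ D.posUnipotent K) (huG : u ∈ G1)
    (hnG : n ∈ G1) {π : Equiv.Perm (Fin D.nroots)} {c : Fin D.nroots → Kˣ} (H : IsNor h ax n π c)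
    (hp : ∀ r : Fin D.nroots, Psi D (T.J j) r → D.IsPosRoot (π⁻¹ r)) :
    ∃ b₁ ∈ D.borelSubgroup K ⊓ G1, ∃ b₂ ∈ D.borelSubgroup K ⊓ G1, T.n j * u * n = b₁ * (T.n j * n) * b₂ := by
  have hsG1 := T.n_mem j
  set s := T.n j with hs
  have hU1 : ∀ {v : GL D.Idx K}, v ∈ D.posUnipotent K → v ∈ G1 → v ∈ D.borelSubgroup K ⊓ G1 :=
    fun hv hvG => ⟨(le_sup_left : _ ≤ D.borelSubgroup K) hv, hvG⟩
  have hPn : ∀ r, Psi D (T.J j) r → r < D.nroots := fun r hr => hr.1.1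
  obtain ⟨y, hy, x, hx, rfl⟩ := U_factor h ax (T.J j) hu
  have hfix : tw.s (y * x) = y * x := (T.G1_le huG).2
  obtain ⟨hfy, hfx⟩ := tw.fix_split h2 (closed_Co h _) (closed_Psi h _) (fun r hr hq => hr.2 hq) (T.ρ_co j) (T.ρ_psi j) hy hx hfix
  have hxG1 : x ∈ G1 := T.cl j x hx hfx
  have hyG1 : y ∈ G1 := by
    have : y = y * x * x⁻¹ := by group
    rw [this]
    exact Subgroup.mul_mem _ huG (Subgroup.inv_mem _ hxG1)
  have hy' : s * y * s⁻¹ ∈ D.borelSubgroup K ⊓ G1 :=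
    hU1 (co_le_U ax _ (T.n_conj_co j hy)) (Subgroup.mul_mem _ (Subgroup.mul_mem _ hsG1 hyG1) (Subgroup.inv_mem _ hsG1))
  have Hi := H.inv h ax
  refine ⟨s * y * s⁻¹, hy', n⁻¹ * x * n, ?_, by group⟩
  apply hU1
  · rw [posUnipotent_eq ax]
    have := conj_closure Hi hPn (Q := D.IsPosRoot) (fun r hr => hp r hr) hx
    simpa using this
  · exact Subgroup.mul_mem _ (Subgroup.mul_mem _ (Subgroup.inv_mem _ hnG) hxG1) hnG

/-- A descent of `mk n` at a class makes `n⁻¹` send the class to negative roots. -/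
theorem neg_of_not_asc (j : T.ι) (n : ↥G1) (hn : n ∈ (T.bnPair h2).N) {π : Equiv.Perm (Fin D.nroots)}
    {c : Fin D.nroots → Kˣ} (H : IsNor h ax n.1 π c)
    (hA : ¬ Asc (sOf T h2 j) (mk (T.bnPair h2) ⟨n, hn⟩)) :
    ∀ r : Fin D.nroots, Psi D (T.J j) r → D.IsNegRoot (π⁻¹ r) := by
  have hnm : n.1 ∈ D.monomialSubgroup K := (Subgroup.mem_subgroupOf.mp hn).1
  have Hi := H.inv h ax
  have hF : n.1⁻¹ ∈ tw.Fx := T.G1_le (Subgroup.inv_mem _ n.2)
  have hcomm := tw.comm_rho_of_fix h2 hF Hi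
  rcases T.dichotomy h2 (Subgroup.inv_mem _ hnm) Hi hcomm j with hp | hq
  · exfalso
    set P := T.bnPair h2 with hP
    set w := mk P ⟨n, hn⟩ with hw
    have hlt := not_asc_iff.mp hA
    have hnC : n ∈ C P w := mem_C_of_rep rfl
    obtain ⟨x, hx, y, hy, e⟩ := exists_mul_of_lt hlt hnC
    rw [C_sw] at hx
    rw [hw, C_mk] at hy
    obtain ⟨b₁, hb₁, b₂, hb₂, rfl⟩ := mem_dc.mp hx
    obtain ⟨b₃, hb₃, b₄, hb₄, rfl⟩ := mem_dc.mp hy
    have hb₁' : (b₁ : GL D.Idx K) ∈ D.borelSubgroup K ⊓ G1 := Subgroup.mem_subgroupOf.mp hb₁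
    have hb₂' : (b₂ : GL D.Idx K) ∈ D.borelSubgroup K ⊓ G1 := Subgroup.mem_subgroupOf.mp hb₂
    have hb₃' : (b₃ : GL D.Idx K) ∈ D.borelSubgroup K ⊓ G1 := Subgroup.mem_subgroupOf.mp hb₃
    have hb₄' : (b₄ : GL D.Idx K) ∈ D.borelSubgroup K ⊓ G1 := Subgroup.mem_subgroupOf.mp hb₄
    have hbb : (b₂ : GL D.Idx K) * b₃ ∈ D.borelSubgroup K ⊓ G1 := Subgroup.mul_mem _ hb₂' hb₃'
    obtain ⟨u, hu, a, ha, e2⟩ := T.B1_form h2 hbb.1 hbb.2
    obtain ⟨c₁, hc₁, c₂, hc₂, e3⟩ := mul_u_left T h2 j hu.1 hu.2 n.2 H (fun r hr => hp r hr)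
    have haconj : n.1⁻¹ * a * n.1 ∈ D.borelSubgroup K ⊓ G1 :=
      ⟨(le_sup_right : _ ≤ D.borelSubgroup K) (Hi.conj_mem_H h ax ha.1 |> fun h9 => by simpa using h9),
        Subgroup.mul_mem _ (Subgroup.mul_mem _ (Subgroup.inv_mem _ n.2) ha.2) n.2⟩
    have e4 : (n : GL D.Idx K) = ((b₁ : GL D.Idx K) * c₁) * (T.n j * n) *
        (c₂ * (n.1⁻¹ * a * n.1) * b₄) := by
      have e5 := congrArg Subtype.val e
      simp only [Subgroup.coe_mul] at e5
      have e6 : ((b₁ : GL D.Idx K) * (sOf T h2 j).1.1 * b₂) * (b₃ * n * b₄) =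
          b₁ * (T.n j * (u * a) * n) * b₄ := by
        rw [← e2]
        show (b₁ : GL D.Idx K) * T.n j * b₂ * (b₃ * n * b₄) = _
        group
      rw [e6] at e5
      have e7 : T.n j * (u * a) * n.1 = (T.n j * u * n.1) * (n.1⁻¹ * a * n.1) := by group
      rw [e7, e3] at e5
      refine e5.trans ?_
      group
    have hmem : n ∈ C P (sw P (sOf T h2 j) * w) := by
      have e8 : sw P (sOf T h2 j) * w = mk P (⟨(sOf T h2 j).1, P.subset (sOf T h2 j).2⟩ * ⟨n, hn⟩) := rfl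
      rw [e8, C_mk]
      refine mem_dc.mpr ⟨⟨_, (Subgroup.mul_mem _ hb₁' hc₁).2⟩,
        Subgroup.mem_subgroupOf.mpr (Subgroup.mul_mem _ hb₁' hc₁),
        ⟨_, (Subgroup.mul_mem _ (Subgroup.mul_mem _ hc₂ haconj) hb₄').2⟩,
        Subgroup.mem_subgroupOf.mpr (Subgroup.mul_mem _ (Subgroup.mul_mem _ hc₂ haconj) hb₄'), ?_⟩
      apply Subtype.ext
      exact e4
    have e9 := eq_of_mem_C hnC hmem
    have e10 : sw P (sOf T h2 j) = 1 := mul_eq_right.mp e9.symm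
    exact sw_ne_one _ e10
  · intro r hr
    exact hq r hr

/-- A non-trivial element of `U¹` fixes no chamber in a cell with all descents. -/
theorem hopp {a : GL D.Idx K} (ha : a ∈ D.posUnipotent K) (ha1 : a ≠ 1) (g : ↥G1)
    (hd : ∀ j, ¬ Asc (sOf T h2 j) (cw (T.bnPair h2) g)) :
    g.1 * a * g.1⁻¹ ∉ D.borelSubgroup K ⊓ G1 := by
  intro hb
  set P := T.bnPair h2 with hP
  obtain ⟨n, hn⟩ := exists_mk (cw P g)
  have hg := mem_cw (P := P) g
  rw [← hn, C_mk] at hg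
  obtain ⟨b, hb1, b', hb2, e⟩ := mem_dc.mp hg
  have hnG := n.1.2
  have hnN : (n.1 : ↥G1) ∈ P.N := n.2
  have hnm : n.1.1 ∈ D.monomialSubgroup K := (Subgroup.mem_subgroupOf.mp hnN).1
  obtain ⟨π, c, H⟩ := exists_isNor h h2 ax hnm
  have hneg : ∀ j, ∀ r : Fin D.nroots, Psi D (T.J j) r → D.IsNegRoot (π⁻¹ r) := by
    intro j
    apply neg_of_not_asc T h2 j n.1 hnN H
    have := hd j
    rwa [← hn] at this
  have Hi := H.inv h ax
  have hall : ∀ r : Fin D.nroots, D.IsPosRoot r → D.IsNegRoot (π⁻¹ r) := by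
    intro r hr
    apply pi_neg_of_support h2 (Subgroup.inv_mem _ hnm) Hi hr
    intro k hk hne
    obtain ⟨j, hj⟩ := T.cover k hk
    exact hneg j _ (T.simple_psi j hk hj)
  have hall' : ∀ r : Fin D.nroots, D.IsPosRoot r → D.IsNegRoot (π r) := by
    intro r hr
    rcases isPos_or_isNeg h (π r).isLt with h3 | h3
    · have h4 := hall (π r) h3
      have e9 : π⁻¹ (π r) = r := by simp
      rw [e9] at h4
      exact absurd h4 (not_isNeg_of_isPos h hr)
    · exact h3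
  have hb' : (b' : GL D.Idx K) ∈ D.borelSubgroup K := (Subgroup.mem_subgroupOf.mp hb2).1
  have hbb : (b : GL D.Idx K) ∈ D.borelSubgroup K := (Subgroup.mem_subgroupOf.mp hb1).1
  have hu : (b' : GL D.Idx K) * a * (b' : GL D.Idx K)⁻¹ ∈ D.posUnipotent K := by
    obtain ⟨u, hu, t, ht, e2⟩ := (mem_borel_iff ax h).mp hb'
    rw [e2]
    have h5 := diagonal_conj_U ax h ht ha
    have e3 : u * t * a * (u * t)⁻¹ = u * (t * a * t⁻¹) * u⁻¹ := by group
    rw [e3]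
    exact Subgroup.mul_mem _ (Subgroup.mul_mem _ hu h5) (Subgroup.inv_mem _ hu)
  have hV : n.1.1 * ((b' : GL D.Idx K) * a * (b' : GL D.Idx K)⁻¹) * n.1.1⁻¹ ∈ D.negUnipotent K := by
    rw [negUnipotent_eq ax]
    rw [posUnipotent_eq ax] at hu
    refine Struct.conj_closure H (fun r hr => hr.1) (fun r hr => hall' r hr) hu
  have e3 : g.1 = (b : GL D.Idx K) * n.1.1 * b' := by
    have := congrArg Subtype.val e
    simpa using this
  have hB : n.1.1 * ((b' : GL D.Idx K) * a * (b' : GL D.Idx K)⁻¹) * n.1.1⁻¹ ∈ D.borelSubgroup K := by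
    have e4 : n.1.1 * ((b' : GL D.Idx K) * a * (b' : GL D.Idx K)⁻¹) * n.1.1⁻¹ =
        (b : GL D.Idx K)⁻¹ * (g.1 * a * g.1⁻¹) * b := by
      rw [e3]
      group
    rw [e4]
    exact Subgroup.mul_mem _ (Subgroup.mul_mem _ (Subgroup.inv_mem _ hbb) hb.1) hbb
  have h6 : n.1.1 * ((b' : GL D.Idx K) * a * (b' : GL D.Idx K)⁻¹) * n.1.1⁻¹ ∈ D.borelSubgroup K ⊓ D.negUnipotent K := ⟨hB, hV⟩
  rw [borel_inf_V ax h, Subgroup.mem_bot] at h6
  apply ha1
  have e5 : a = (b' : GL D.Idx K)⁻¹ * n.1.1⁻¹ * (n.1.1 * ((b' : GL D.Idx K) * a * (b' : GL D.Idx K)⁻¹) * n.1.1⁻¹) * n.1.1 * b' := by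
    group
  rw [e5, h6]
  group

/-- The order of the double coset of a class representative. -/
theorem card_C_sOf [Finite K] (j : T.ι) :
    Nat.card (C (T.bnPair h2) (sw (T.bnPair h2) (sOf T h2 j))) =
      Nat.card (TD.fixCl tw (Psi D (T.J j))) * Nat.card ↥(D.borelSubgroup K ⊓ G1) := by
  obtain ⟨c', Hn⟩ := T.n_nor j
  have hm : (T.n j)⁻¹ ∈ D.monomialSubgroup K ⊓ G1 :=
    ⟨Subgroup.inv_mem _ (T.n_mono j), Subgroup.inv_mem _ (T.n_mem j)⟩
  have Hi := Hn.inv h ax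
  have h1 := T.card_cell h2 hm Hi
  rw [T.w_inv, inv_inv] at h1
  have hc := T.card_chain h2 [j] ⟨fun r hr => hr.1, trivial⟩
  have e0 : TD.chainW T [j] = T.w j := by
    show (1 : Equiv.Perm (Fin D.nroots)) * T.w j = T.w j
    simp
  rw [e0] at hc
  simp only [List.map_cons, List.map_nil, List.prod_cons, List.prod_nil, mul_one] at hc
  rw [hc] at h1
  rw [← h1]
  rw [C_sw]
  refine Nat.card_congr ⟨fun x => ⟨x.1.1, ?_⟩, fun y => ⟨⟨y.1, ?_⟩, ?_⟩, ?_, ?_⟩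
  · obtain ⟨b, hb, b', hb', e⟩ := mem_dc.mp x.2
    refine DoubleCoset.mem_doubleCoset.mpr ⟨b.1, Subgroup.mem_subgroupOf.mp hb, b'.1, Subgroup.mem_subgroupOf.mp hb', ?_⟩
    exact congrArg Subtype.val e
  · obtain ⟨b, hb, b', hb', e⟩ := DoubleCoset.mem_doubleCoset.mp y.2
    rw [e]
    exact Subgroup.mul_mem _ (Subgroup.mul_mem _ hb.2 (T.n_mem j)) hb'.2
  · obtain ⟨b, hb, b', hb', e⟩ := DoubleCoset.mem_doubleCoset.mp y.2
    refine mem_dc.mpr ⟨⟨b, hb.2⟩, Subgroup.mem_subgroupOf.mpr hb, ⟨b', hb'.2⟩, Subgroup.mem_subgroupOf.mpr hb', ?_⟩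
    apply Subtype.ext
    exact e
  · intro x
    rfl
  · intro y
    rfl

/-- The order of the minimal parabolic. -/
theorem card_par [Finite K] (j : T.ι) :
    Nat.card (parS (T.bnPair h2) (sOf T h2 j)) =
      (1 + Nat.card (TD.fixCl tw (Psi D (T.J j)))) * Nat.card ↥(D.borelSubgroup K ⊓ G1) := by
  haveI : Finite (GL D.Idx K) := inferInstance
  rw [card_parS, card_C_sOf T h2]
  have : Nat.card (T.bnPair h2).B = Nat.card ↥(D.borelSubgroup K ⊓ G1) :=
    Nat.card_congr (Subgroup.subgroupOfEquivOfLe inf_le_right).toEquiv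
  rw [this]
  ring

/-- Rank two: no element of a prime order `r` commutes with a non-trivial element of `U¹`, if `r` divides neither
`|B¹|` nor the orders of the minimal parabolics. -/
theorem no_commuting_tw [Finite K] (j₁ j₂ : T.ι) (hj : ∀ j, j = j₁ ∨ j = j₂) {a : GL D.Idx K}
    (ha : a ∈ D.posUnipotent K) (haG : a ∈ G1) (ha1 : a ≠ 1) {c : ↥G1}
    (hac : Commute (⟨a, haG⟩ : ↥G1) c) {r : ℕ} [hr : Fact r.Prime] (hc : orderOf c = r)
    (h0 : ¬ r ∣ Nat.card ↥(D.borelSubgroup K ⊓ G1))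
    (h1 : ¬ r ∣ Nat.card (TD.fixCl tw (Psi D (T.J j₁))) + 1) (h3 : ¬ r ∣ Nat.card (TD.fixCl tw (Psi D (T.J j₂))) + 1) :
    False := by
  haveI : Finite (GL D.Idx K) := inferInstance
  set P := T.bnPair h2 with hP
  have hB : Nat.card P.B = Nat.card ↥(D.borelSubgroup K ⊓ G1) :=
    Nat.card_congr (Subgroup.subgroupOfEquivOfLe inf_le_right).toEquiv
  have hS : ∀ s : P.S, s = sOf T h2 j₁ ∨ s = sOf T h2 j₂ := by
    rintro ⟨s, j, hs⟩
    rcases hj j with rfl | rfl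
    · left
      apply Subtype.ext
      apply Subtype.ext
      exact hs
    · right
      apply Subtype.ext
      apply Subtype.ext
      exact hs
  refine Cfsg.Agent.Lib.BNPair.Euler.no_commuting (P := P) (a := ⟨a, haG⟩) (c := c) ?_ (sOf T h2 j₁) (sOf T h2 j₂) hS ?_ hac hc ?_ ?_ ?_
  · exact Subgroup.mem_subgroupOf.mpr ⟨(le_sup_left : _ ≤ D.borelSubgroup K) ha, haG⟩
  · intro g h4 h5 h6
    refine hopp T h2 ha ha1 g ?_ (Subgroup.mem_subgroupOf.mp h6)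
    intro j
    rcases hj j with rfl | rfl
    · exact h4
    · exact h5
  · rw [hB]
    exact h0
  · rw [card_par T h2 j₁]
    intro hd
    rcases (Fact.out : r.Prime).dvd_mul.mp hd with hd | hd
    · exact h1 (by rwa [add_comm])
    · exact h0 hd
  · rw [card_par T h2 j₂]
    intro hd
    rcases (Fact.out : r.Prime).dvd_mul.mp hd with hd | hd
    · exact h3 (by rwa [add_comm])
    · exact h0 hd

end Cfsg.Agent.Lib.Twisted.FixEuler
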