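import Cfsg.Agent.Lib.Twisted.Ree3Data

/-! # The derived group of ²G₂(3) -/

set_option autoImplicit false

namespace Cfsg.Agent.Lib.Twisted.Ree3

open Cfsg.Lie Cfsg.Agent.Lib.Twisted Cfsg.Agent.Lib.Twisted.Sparse Cfsg.Agent.Lib.Twisted.Eval
open Cfsg.Agent.Lib.Twisted.Ree3Data
open _root_.Cfsg.Agent.Lib.PermComp

instance : Fact (Nat.Prime rr_p) := ⟨by decide⟩

/-- The numbering of the points. -/
abbrev ePts : Fin rr_n ≃ Fin rr_n := Equiv.refl _

/-- The permutation group. -/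
abbrev Pg : Subgroup (Equiv.Perm (Fin rr_n)) := Core.H rr_w rr_mask ePts rr_P_T

/-- Its derived group. -/
abbrev Ag : Subgroup (Equiv.Perm (Fin rr_n)) := Core.H rr_w rr_mask ePts rr_G_T

theorem words_letters_mem : ∀ t u v : ZMod 3,
    Eval.lettersOf (reeWordU 1 t u v) ∈ rr_ents.map (·.1) ∧
    Eval.lettersOf (reeWordV 1 t u v) ∈ rr_ents.map (·.1) := by decide +kernel

theorem ents_of_words : ∀ ent ∈ rr_ents, ∃ t u v : ZMod 3,
    Eval.lettersOf (reeWordU 1 t u v) = ent.1 ∨ Eval.lettersOf (reeWordV 1 t u v) = ent.1 := by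
  decide +kernel

theorem words_ok : ∀ t u v : ZMod 3,
    (∀ l ∈ reeWordU 1 t u v, okRoot chevG2 l.1 = true) ∧
    (∀ l ∈ reeWordV 1 t u v, okRoot chevG2 l.1 = true) := by decide +kernel

theorem hid_P : rr_mask = 2 ^ rr_w - 1 ∧ ∀ i < rr_n, Core.app rr_w rr_mask rr_idc i = i := by
  decide +kernel

theorem exists_rep_P : ∀ c ∈ rr_P_T, ∃ g, Core.Rep rr_w rr_mask ePts c g := by
  intro c hc
  rw [← rr_ents_codes] at hc
  obtain ⟨ent, hent, rfl⟩ := List.mem_map.1 hc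
  have h := (Core.allL_eq_true _ _).1 rr_ents_ok ent hent
  rw [Bridge.entOK, Core.ifB_eq_true] at h
  exact Simple.exists_rep_of_valid hid_P.1 hid_P.2 h.1

/-- The matrix group is isomorphic to the permutation group. -/
theorem nonempty_equiv : Nonempty (twistedG2 (ZMod 3) 1 ≃* Pg) := by
  have h := Bridge.main (D := chevG2) (p := rr_p) (S := g2Words (ZMod 3) 1) (G := rr_ents)
    (cert := rr_span) (w' := rr_w) (mask' := rr_mask) (idc' := rr_idc)
    hid_P.1 hid_P.2 rr_omega_ok rr_span_ok rr_ents_ok rr_tabs_ok ?_ ?_ ?_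
  · rw [rr_ents_codes] at h
    exact h
  · rintro W ⟨t, u, v, rfl | rfl⟩
    · exact List.mem_map.1 (words_letters_mem t u v).1 |>.imp fun x hx => ⟨hx.1, hx.2.symm⟩
    · exact List.mem_map.1 (words_letters_mem t u v).2 |>.imp fun x hx => ⟨hx.1, hx.2.symm⟩
  · intro ent hent
    obtain ⟨t, u, v, h | h⟩ := ents_of_words ent hent
    · exact ⟨_, ⟨t, u, v, Or.inl rfl⟩, h⟩
    · exact ⟨_, ⟨t, u, v, Or.inr rfl⟩, h⟩
  · rintro W ⟨t, u, v, rfl | rfl⟩
    · exact (words_ok t u v).1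
    · exact (words_ok t u v).2

theorem derived : commutator Pg = Ag.subgroupOf Pg ∧ Ag ≤ Pg := by
  have h := Bridge.derived_main (n := rr_n) (w := rr_w) (mask := rr_mask) (L := rr_L)
    (maskL := rr_maskL) (idc := rr_idc) (e := ePts) (Tg := rr_P_T)
    (lsP := rr_P_levels) (lsA := rr_G_levels) (progP := rr_P_prog) (progA := rr_G_prog)
    (comms := rr_comms) (q := 3) (by norm_num) exists_rep_P rr_P_ok rr_derived_ok
    (by rw [rr_comms_codes]; exact rr_G_ok) (by rw [rr_P_order, rr_order])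
  rw [rr_comms_codes] at h
  exact h

theorem exists_rep_A : ∀ c ∈ rr_G_T, ∃ g, Core.Rep rr_w rr_mask ePts c g := by
  intro c hc
  rw [← rr_comms_codes] at hc
  have h : Bridge.derivedOK rr_n rr_w rr_mask rr_L rr_maskL rr_idc rr_P_T rr_G_levels rr_comms = true := rr_derived_ok
  rw [Bridge.derivedOK, Core.ifB_eq_true, Core.ifB_eq_true, Core.allL_eq_true, Core.allL_eq_true] at h
  obtain ⟨h1, h2, -⟩ := h
  obtain ⟨x, hx, rfl⟩ := List.mem_map.1 hc
  have h4 := h2 x hx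
  rw [Core.ifB_eq_true, Core.ifB_eq_true] at h4
  obtain ⟨h5, h6, h7⟩ := h4
  have h5' := (Core.memN_eq_true _ _).1 h5
  have h6' := (Core.memN_eq_true _ _).1 h6
  obtain ⟨a, ha⟩ := exists_rep_P _ h5'
  obtain ⟨b, hb⟩ := exists_rep_P _ h6'
  have hm := hid_P.1
  have hid := hid_P.2
  rw [Nat.eq_of_beq_eq_true h7]
  exact ⟨_, ((ha.comp hm hb).comp hm (ha.inv hm hid (Nat.eq_of_beq_eq_true (h1 _ h5')))).comp hm
    (hb.inv hm hid (Nat.eq_of_beq_eq_true (h1 _ h6')))⟩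

theorem card_Ag : Nat.card Ag = 504 := by
  obtain ⟨-, -, -, -, -, h⟩ := Core.main_of_checkAll (e := ePts) exists_rep_A rr_G_ok
  rw [h, rr_order]

theorem isSimple_Ag : IsSimpleGroup Ag :=
  Simple.isSimple_of_cert exists_rep_A rr_G_ok rr_order (by norm_num) rr_reps_ok rr_syls_ok rr_prod

/-- The derived group of ²G₂(3) as a permutation group. -/
theorem nonempty_commutator_equiv : Nonempty (commutator (twistedG2 (ZMod 3) 1) ≃* Ag) := by
  obtain ⟨φ⟩ := nonempty_equiv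
  obtain ⟨ψ⟩ := Eval.commutator_mulEquiv φ
  exact ⟨ψ.trans ((MulEquiv.subgroupCongr derived.1).trans (Subgroup.subgroupOfEquivOfLe derived.2))⟩

end Cfsg.Agent.Lib.Twisted.Ree3
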